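import Mathlib
import Cfsg.Agent.Lib.PGroup.SuzukiTwo.Mono

/-!
# Arithmetic for the generalised Higman set-up

`M * t = 2 ^ n - 1` with `t ∣ n`: the order of `2` modulo `M` is `n` and the weight relation
`u * 2 ^ i + 2 ^ j ≡ 1 [MOD M]` has at most one solution.  Also: free permutations.
-/

set_option autoImplicit false
set_option linter.style.haveILetI false
set_option linter.unusedSectionVars false
set_option linter.unusedVariables false

namespace Cfsg.Agent.Lib.PGroup.SuzukiGen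

/-- Weight uniqueness. -/
def HW (M n : ℕ) : Prop :=
  ∀ u i j i' j' : ℕ, u < M → u.Coprime M → i < n → j < n → i' < n → j' < n →
    u * 2 ^ i + 2 ^ j ≡ 1 [MOD M] → u * 2 ^ i' + 2 ^ j' ≡ 1 [MOD M] → i = i' ∧ j = j'

theorem add_two_le_two_pow {n : ℕ} (hn : 2 ≤ n) : n + 2 ≤ 2 ^ n := by
  induction n, hn using Nat.le_induction with
  | base => norm_num
  | succ n hn ih => rw [pow_succ]; omega

theorem t_le_of {n t : ℕ} (htn : t ∣ n) (ht2 : t ∣ 2 ^ n - 1) (hn : 2 ≤ n)
    (hex : ¬ (n = 6 ∧ t = 3)) : t ≤ 2 ^ ((n - 1) / 4) := by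
  by_cases hn21 : n < 21
  · have key : ∀ n ∈ Finset.range 21, ∀ t ∈ Finset.range (n + 1), 2 ≤ n → t ∣ n →
        t ∣ 2 ^ n - 1 → ¬ (n = 6 ∧ t = 3) → t ≤ 2 ^ ((n - 1) / 4) := by decide +kernel
    exact key n (Finset.mem_range.mpr hn21) t
      (Finset.mem_range.mpr (Nat.lt_succ_of_le (Nat.le_of_dvd (by omega) htn))) hn htn ht2 hex
  · have h1 : t ≤ n := Nat.le_of_dvd (by omega) htn
    set k := (n - 1) / 4 with hk
    have hk5 : 5 ≤ k := by omega
    have hnk : n ≤ 4 * k + 4 := by omega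
    have h2 : 4 * k + 4 ≤ 2 ^ k := by
      clear_value k
      clear hk hnk
      induction k, hk5 using Nat.le_induction with
      | base => norm_num
      | succ k hk ih => rw [pow_succ]; omega
    omega

theorem pow_mod_congr {M n : ℕ} (hM : M ∣ 2 ^ n - 1) (hn : 0 < n) (x : ℕ) :
    2 ^ x ≡ 2 ^ (x % n) [MOD M] := by
  have h1 : 2 ^ n ≡ 1 [MOD M] := by
    have h2 : 1 ≤ 2 ^ n := Nat.one_le_two_pow
    exact ((Nat.modEq_iff_dvd' h2).mpr hM).symm
  conv_lhs => rw [← Nat.div_add_mod x n]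
  rw [pow_add, pow_mul]
  have h3 : (2 ^ n) ^ (x / n) ≡ 1 [MOD M] := by
    simpa using h1.pow (x / n)
  simpa using h3.mul_right (2 ^ (x % n))

/-- The number of shifts moving a residue to the top part is small. -/
theorem bad_card (n L x : ℕ) (hL : L < n) :
    ((Finset.range n).filter (fun k => L < (x + k) % n)).card ≤ n - 1 - L := by
  classical
  have hn : 0 < n := by omega
  have h1 : ((Finset.range n).filter (fun k => L < (x + k) % n)).card
      ≤ (Finset.Ioo L n).card := by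
    apply Finset.card_le_card_of_injOn (fun k => (x + k) % n)
    · intro k hk
      simp only [Finset.coe_filter, Finset.mem_range, Set.mem_ofPred_eq] at hk
      simp only [Finset.coe_Ioo, Set.mem_Ioo]
      exact ⟨hk.2, Nat.mod_lt _ hn⟩
    · intro k hk k' hk' h
      simp only [Finset.coe_filter, Finset.mem_range, Set.mem_ofPred_eq] at hk hk'
      have h2 : x + k ≡ x + k' [MOD n] := h
      have h3 : k ≡ k' [MOD n] := Nat.ModEq.add_left_cancel' x h2
      exact Nat.ModEq.eq_of_lt_of_lt h3 hk.1 hk'.1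
  rw [Nat.card_Ioo] at h1
  omega

theorem exists_shift (n : ℕ) (hn : 2 ≤ n) (a b c d : ℕ) :
    ∃ k, (a + k) % n ≤ n - 1 - (n - 1) / 4 ∧ (b + k) % n ≤ n - 1 - (n - 1) / 4 ∧
      (c + k) % n ≤ n - 1 - (n - 1) / 4 ∧ (d + k) % n ≤ n - 1 - (n - 1) / 4 := by
  classical
  set L := n - 1 - (n - 1) / 4 with hL
  have hLn : L < n := by omega
  let B : ℕ → Finset ℕ := fun x => (Finset.range n).filter (fun k => L < (x + k) % n)
  have hB : ∀ x, (B x).card ≤ (n - 1) / 4 := by
    intro x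
    have := bad_card n L x hLn
    simp only [B]
    omega
  let U := B a ∪ (B b ∪ (B c ∪ B d))
  have hU : U.card < (Finset.range n).card := by
    rw [Finset.card_range]
    have h1 := Finset.card_union_le (B a) (B b ∪ (B c ∪ B d))
    have h2 := Finset.card_union_le (B b) (B c ∪ B d)
    have h3 := Finset.card_union_le (B c) (B d)
    have h4 := hB a
    have h5 := hB b
    have h6 := hB c
    have h7 := hB d
    simp only [U]
    omega
  obtain ⟨k, hk, hkU⟩ := Finset.exists_mem_notMem_of_card_lt_card hU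
  rw [Finset.mem_range] at hk
  simp only [U, Finset.mem_union, not_or] at hkU
  obtain ⟨h1, h2, h3, h4⟩ := hkU
  have key : ∀ x, k ∉ B x → (x + k) % n ≤ L := by
    intro x hx
    by_contra h
    exact hx (by simp only [B, Finset.mem_filter, Finset.mem_range]; exact ⟨hk, by omega⟩)
  exact ⟨k, key a h1, key b h2, key c h3, key d h4⟩

/-- The Sidon property of the powers of `2` modulo `M`. -/
theorem sidon {M t n : ℕ} (hMt : M * t = 2 ^ n - 1) (htn : t ∣ n) (hn : 2 ≤ n)
    (hex : ¬ (n = 6 ∧ t = 3)) {a b c d : ℕ} (h : 2 ^ a + 2 ^ b ≡ 2 ^ c + 2 ^ d [MOD M]) :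
    (a ≡ c [MOD n] ∧ b ≡ d [MOD n]) ∨ (a ≡ d [MOD n] ∧ b ≡ c [MOD n]) := by
  have hn0 : 0 < n := by omega
  have hMd : M ∣ 2 ^ n - 1 := ⟨t, hMt.symm⟩
  have htd : t ∣ 2 ^ n - 1 := ⟨M, by rw [← hMt, mul_comm]⟩
  have ht := t_le_of htn htd hn hex
  obtain ⟨k, h1, h2, h3, h4⟩ := exists_shift n hn a b c d
  set L := n - 1 - (n - 1) / 4 with hL
  set G := (n - 1) / 4 with hG
  set a' := (a + k) % n with ha'
  set b' := (b + k) % n with hb'
  set c' := (c + k) % n with hc'
  set d' := (d + k) % n with hd'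
  have hmod : 2 ^ a' + 2 ^ b' ≡ 2 ^ c' + 2 ^ d' [MOD M] := by
    have e1 := pow_mod_congr hMd hn0 (a + k)
    have e2 := pow_mod_congr hMd hn0 (b + k)
    have e3 := pow_mod_congr hMd hn0 (c + k)
    have e4 := pow_mod_congr hMd hn0 (d + k)
    have e5 : 2 ^ (a + k) + 2 ^ (b + k) ≡ 2 ^ (c + k) + 2 ^ (d + k) [MOD M] := by
      have := h.mul_right (2 ^ k)
      simpa [pow_add, add_mul] using this
    exact ((e1.symm.add e2.symm).trans e5).trans (e3.add e4)
  -- the bound
  have hn' : n = L + 1 + G := by omega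
  have hA : ∀ x, x ≤ L → 2 ^ x ≤ 2 ^ L := fun x hx => Nat.pow_le_pow_right (by norm_num) hx
  have hge : ∀ x : ℕ, 1 ≤ 2 ^ x := fun x => Nat.one_le_two_pow
  have l1 := hA a' h1
  have l2 := hA b' h2
  have l3 := hA c' h3
  have l4 := hA d' h4
  have g1 := hge a'
  have g2 := hge b'
  have g3 := hge c'
  have g4 := hge d'
  have hM : 2 * 2 ^ L - 2 < M := by
    by_contra hcon
    push Not at hcon
    have e1 : 2 ^ n = 2 * 2 ^ L * 2 ^ G := by
      rw [hn', pow_add, pow_add]
      ring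
    have e2 : M * t ≤ (2 * 2 ^ L - 2) * 2 ^ G := Nat.mul_le_mul hcon ht
    have e3 : (2 * 2 ^ L - 2) * 2 ^ G = 2 * 2 ^ L * 2 ^ G - 2 * 2 ^ G := Nat.sub_mul _ _ _
    have e4 := hge G
    have e5 := hge L
    rw [hMt, e3, ← e1] at e2
    have e6 := hge n
    have e7 : 2 * 2 ^ G ≤ 2 ^ n := by
      rw [e1]
      exact Nat.mul_le_mul_right _ (by omega)
    omega
  have heq : 2 ^ a' + 2 ^ b' = 2 ^ c' + 2 ^ d' := by
    have hmod' : (2 ^ a' + 2 ^ b' - 2) ≡ (2 ^ c' + 2 ^ d' - 2) [MOD M] := by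
      have e1 : 2 ^ a' + 2 ^ b' = (2 ^ a' + 2 ^ b' - 2) + 2 := by omega
      have e2 : 2 ^ c' + 2 ^ d' = (2 ^ c' + 2 ^ d' - 2) + 2 := by omega
      rw [e1, e2] at hmod
      exact Nat.ModEq.add_right_cancel' 2 hmod
    have := Nat.ModEq.eq_of_lt_of_lt hmod' (by omega) (by omega)
    omega
  have hback : ∀ {x y : ℕ}, (x + k) % n = (y + k) % n → x ≡ y [MOD n] := by
    intro x y hxy
    exact Nat.ModEq.add_right_cancel' k hxy
  rcases SuzukiTwo.two_pow_add_eq heq with ⟨e1, e2⟩ | ⟨e1, e2⟩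
  · left; exact ⟨hback e1, hback e2⟩
  · right; exact ⟨hback e1, hback e2⟩

theorem M_ne_one {M t n : ℕ} (hMt : M * t = 2 ^ n - 1) (htn : t ∣ n) (hn : 2 ≤ n) : M ≠ 1 := by
  rintro rfl
  rw [one_mul] at hMt
  have h1 : t ≤ n := Nat.le_of_dvd (by omega) htn
  have h2 := add_two_le_two_pow hn
  omega

theorem M_odd {M t n : ℕ} (hMt : M * t = 2 ^ n - 1) (hn : 2 ≤ n) : Odd M := by
  have h1 : Odd (2 ^ n - 1) := by
    obtain ⟨k, rfl⟩ : ∃ k, n = k + 1 := ⟨n - 1, by omega⟩
    rw [pow_succ]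
    have := Nat.one_le_two_pow (n := k)
    exact ⟨2 ^ k - 1, by omega⟩
  rw [← hMt] at h1
  exact (Nat.odd_mul.mp h1).1

/-- The weight relation has at most one solution. -/
theorem hw_of {M t n : ℕ} (hMt : M * t = 2 ^ n - 1) (htn : t ∣ n) (hn : 2 ≤ n) : HW M n := by
  by_cases hex : n = 6 ∧ t = 3
  · obtain ⟨rfl, rfl⟩ := hex
    have hM : M = 21 := by omega
    subst hM
    have key : ∀ u ∈ Finset.range 21, ∀ i ∈ Finset.range 6, ∀ j ∈ Finset.range 6,
        ∀ i' ∈ Finset.range 6, ∀ j' ∈ Finset.range 6, Nat.gcd u 21 = 1 →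
        (u * 2 ^ i + 2 ^ j) % 21 = 1 → (u * 2 ^ i' + 2 ^ j') % 21 = 1 → i = i' ∧ j = j' := by
      decide +kernel
    intro u i j i' j' hu hc hi hj hi' hj' h h'
    exact key u (Finset.mem_range.mpr hu) i (Finset.mem_range.mpr hi) j (Finset.mem_range.mpr hj)
      i' (Finset.mem_range.mpr hi') j' (Finset.mem_range.mpr hj') hc h h'
  · intro u i j i' j' hu hc hi hj hi' hj' h h'
    have e1 := h.mul_right (2 ^ i')
    have e2 := h'.mul_right (2 ^ i)
    have e3 : u * 2 ^ i * 2 ^ i' = u * 2 ^ i' * 2 ^ i := by ring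
    rw [add_mul, one_mul] at e1 e2
    rw [e3] at e1
    have e4 : 2 ^ (j + i') + 2 ^ i ≡ 2 ^ (j' + i) + 2 ^ i' [MOD M] := by
      have e5 := e1.add_right (2 ^ i)
      have e6 := e2.add_right (2 ^ i')
      rw [pow_add, pow_add]
      have e7 : u * 2 ^ i' * 2 ^ i + (2 ^ j * 2 ^ i' + 2 ^ i) ≡
          u * 2 ^ i' * 2 ^ i + (2 ^ j' * 2 ^ i + 2 ^ i') [MOD M] := by
        calc u * 2 ^ i' * 2 ^ i + (2 ^ j * 2 ^ i' + 2 ^ i)
            = u * 2 ^ i' * 2 ^ i + 2 ^ j * 2 ^ i' + 2 ^ i := by ring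
          _ ≡ 2 ^ i' + 2 ^ i [MOD M] := e5
          _ = 2 ^ i + 2 ^ i' := by ring
          _ ≡ u * 2 ^ i' * 2 ^ i + 2 ^ j' * 2 ^ i + 2 ^ i' [MOD M] := e6.symm
          _ = _ := by ring
      exact Nat.ModEq.add_left_cancel' _ e7
    rcases sidon hMt htn hn hex e4 with ⟨s1, s2⟩ | ⟨s1, s2⟩
    · have hii : i = i' := Nat.ModEq.eq_of_lt_of_lt s2 hi hi'
      subst hii
      have hjj : j ≡ j' [MOD n] := by
        have : j + i ≡ j' + i [MOD n] := s1
        exact Nat.ModEq.add_right_cancel' i this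
      exact ⟨rfl, Nat.ModEq.eq_of_lt_of_lt hjj hj hj'⟩
    · exfalso
      have hj0 : j = 0 := by
        have s3 : j + i' ≡ 0 + i' [MOD n] := by simpa using s1
        have s4 : j ≡ 0 [MOD n] := Nat.ModEq.add_right_cancel' i' s3
        exact Nat.ModEq.eq_of_lt_of_lt s4 hj (by omega)
      subst hj0
      have hu0 : u * 2 ^ i ≡ 0 [MOD M] := by
        have s5 : u * 2 ^ i + 2 ^ 0 ≡ 0 + 2 ^ 0 [MOD M] := by simpa using h
        exact Nat.ModEq.add_right_cancel' _ s5
      have hdvd : M ∣ u * 2 ^ i := (Nat.modEq_zero_iff_dvd).mp hu0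
      have hcop : M.Coprime (2 ^ i) := by
        have h1 : Odd M := M_odd hMt hn
        exact Nat.Coprime.pow_right i (Nat.coprime_two_right.mpr h1)
      have hdvd' : M ∣ u := hcop.dvd_of_dvd_mul_right hdvd
      have hM1 : M = 1 := by
        have := Nat.Coprime.eq_one_of_dvd hc.symm hdvd'
        exact this
      exact M_ne_one hMt htn hn hM1

/-- The order of `2` modulo `M` is `n`. -/
theorem hord_of {M t n : ℕ} (hMt : M * t = 2 ^ n - 1) (htn : t ∣ n) (hn : 2 ≤ n) {d : ℕ}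
    (h : M ∣ 2 ^ d - 1) : n ∣ d := by
  set g := Nat.gcd d n with hg
  have hgn : g ∣ n := Nat.gcd_dvd_right d n
  have hgd : g ∣ d := Nat.gcd_dvd_left d n
  by_cases hgeq : g = n
  · rwa [← hgeq]
  exfalso
  have hMn : M ∣ 2 ^ n - 1 := ⟨t, hMt.symm⟩
  have hMg : M ∣ 2 ^ g - 1 := by
    have := Nat.dvd_gcd h hMn
    rwa [Nat.pow_sub_one_gcd_pow_sub_one] at this
  have hgpos : 0 < g := Nat.pos_of_dvd_of_pos hgn (by omega)
  have hg2 : g ≤ n / 2 := by
    obtain ⟨c, hc⟩ := hgn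
    have hc2 : 2 ≤ c := by
      rcases c with _ | _ | c
      · omega
      · simp at hc; omega
      · omega
    have : g * 2 ≤ g * c := Nat.mul_le_mul_left _ hc2
    omega
  set h2 := n / 2 with hh2
  have hh1 : 1 ≤ h2 := by omega
  have hgle : 2 ^ g ≤ 2 ^ h2 := Nat.pow_le_pow_right (by norm_num) hg2
  have hp1 : 2 ≤ 2 ^ g := by
    calc 2 = 2 ^ 1 := rfl
      _ ≤ 2 ^ g := Nat.pow_le_pow_right (by norm_num) hgpos
  have hMle : M ≤ 2 ^ h2 - 1 := by
    have := Nat.le_of_dvd (by omega) hMg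
    omega
  have htle : t ≤ n := Nat.le_of_dvd (by omega) htn
  have hle : M * t ≤ (2 ^ h2 - 1) * n := Nat.mul_le_mul hMle htle
  rw [hMt] at hle
  -- the inequality `(2 ^ (n / 2) - 1) * n < 2 ^ n - 1`
  by_cases h6 : n < 6
  · clear_value h2
    subst hh2
    clear hMle hg2 hgle hh1
    interval_cases n <;> simp at hle
  · have hh3 : 3 ≤ h2 := by omega
    have hbig : 2 * h2 < 2 ^ h2 := by
      clear_value h2
      clear hh2 hgle hMle hle hg2 hh1 hp1
      induction h2, hh3 using Nat.le_induction with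
      | base => norm_num
      | succ k hk ih => rw [pow_succ]; omega
    have hnle : n ≤ 2 * h2 + 1 := by omega
    obtain ⟨A, hA⟩ : ∃ A, 2 ^ h2 = A + 1 := ⟨2 ^ h2 - 1, by have := Nat.one_le_two_pow (n := h2); omega⟩
    have hn2 : 2 ^ (2 * h2) ≤ 2 ^ n := Nat.pow_le_pow_right (by norm_num) (by omega)
    have e1 : 2 ^ (2 * h2) = (A + 1) * (A + 1) := by
      rw [two_mul, pow_add, hA]
    rw [hA] at hle hbig
    simp only [Nat.add_sub_cancel] at hle
    rw [e1] at hn2
    have hApos : 0 < A := by omega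
    have hnA : n ≤ A + 1 := by omega
    have : A * n ≤ A * (A + 1) := Nat.mul_le_mul_left _ hnA
    have e2 : (A + 1) * (A + 1) = A * A + 2 * A + 1 := by ring
    have e3 : A * (A + 1) = A * A + A := by ring
    omega

/-- A permutation all of whose orbits have length divisible by `M`. -/
theorem free_card_dvd {X : Type*} [Finite X] (g : Equiv.Perm X) {M : ℕ}
    (h : ∀ x a, (g ^ a) x = x → M ∣ a) : M ∣ Nat.card X := by
  classical
  haveI := Fintype.ofFinite X
  let Z := Subgroup.zpowers g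
  haveI : Finite (MulAction.orbitRel.Quotient Z X) := inferInstance
  haveI := Fintype.ofFinite (MulAction.orbitRel.Quotient Z X)
  rw [Nat.card_congr (MulAction.selfEquivSigmaOrbits Z X)]
  rw [Nat.card_sigma]
  apply Finset.dvd_sum
  intro ω _
  set x := Quotient.out ω with hx
  have e1 := MulAction.minimalPeriod_eq_card (a := g) (b := x)
  have e2 : M ∣ Function.minimalPeriod (g • ·) x := by
    apply h x
    have : ((g • ·)^[Function.minimalPeriod (g • ·) x]) x = x :=
      Function.iterate_minimalPeriod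
    have e3 : ∀ a : ℕ, (g ^ a) x = ((g • ·)^[a]) x := by
      intro a
      induction a with
      | zero => rfl
      | succ a ih =>
        rw [Function.iterate_succ_apply', pow_succ', Equiv.Perm.mul_apply, ih]
        rfl
    rw [e3, this]
  rw [e1, ← Nat.card_eq_fintype_card] at e2
  exact e2

/-- The set form of `free_card_dvd`. -/
theorem free_set_dvd {α : Type*} (S : Set α) [Finite S] (φ : α → α) {M : ℕ}
    (hφ : ∀ x ∈ S, φ x ∈ S) (hinj : Set.InjOn φ S)
    (hfree : ∀ x ∈ S, ∀ a : ℕ, φ^[a] x = x → M ∣ a) : M ∣ Nat.card S := by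
  classical
  let r : S → S := fun x => ⟨φ x, hφ x x.2⟩
  have hr : Function.Injective r := by
    intro x y hxy
    exact Subtype.ext (hinj x.2 y.2 (congrArg Subtype.val hxy))
  have hb : Function.Bijective r := Finite.injective_iff_bijective.mp hr
  let g : Equiv.Perm S := Equiv.ofBijective r hb
  apply free_card_dvd g
  intro x a hx
  have e : ∀ a : ℕ, (((g ^ a) x : S) : α) = φ^[a] x := by
    intro a
    induction a with
    | zero => rfl
    | succ a ih =>
      rw [Function.iterate_succ_apply', pow_succ', Equiv.Perm.mul_apply, ← ih]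
      rfl
  apply hfree x x.2
  rw [← e, hx]

end Cfsg.Agent.Lib.PGroup.SuzukiGen
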