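import Mathlib
import Cfsg.Agent.Lib.PGroup.SuzukiGen.Arith

/-!
# Monomial lemma for equivariant biadditive maps, elements of order `M`
-/

set_option autoImplicit false

namespace Cfsg.Agent.Lib.PGroup.SuzukiGen

section Field

variable {F : Type*} [Field F] [Fintype F] [CharP F 2]

omit [Fintype F] [CharP F 2] in
theorem ne_zero_of_orderOf {a : F} {M : ℕ} (h : orderOf a = M) (hM : 0 < M) : a ≠ 0 := by
  rintro rfl
  have h1 : (0 : F) ^ M = 1 := by
    rw [← h]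
    exact pow_orderOf_eq_one _
  rw [zero_pow (by omega)] at h1
  exact zero_ne_one h1

omit [Fintype F] [CharP F 2] in
theorem ne_one_of_orderOf {a : F} {M : ℕ} (h : orderOf a = M) (hM : 2 ≤ M) : a ≠ 1 := by
  rintro rfl
  rw [orderOf_one] at h
  omega

/-- The weight relation `σ μ * τ λ = λ` has at most one solution. -/
theorem weight_uniq {n M : ℕ} (hm : Fintype.card F = 2 ^ n) (hm0 : n ≠ 0) (hM : 2 ≤ M)
    (hw : HW M n) {μ l : F} (hμ : orderOf μ = M) (hl : orderOf l = M)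
    {σ τ σ' τ' : F ≃+* F} (h : σ μ * τ l = l) (h' : σ' μ * τ' l = l) : σ = σ' ∧ τ = τ' := by
  classical
  haveI : NeZero M := ⟨by omega⟩
  have hl0 : l ≠ 0 := ne_zero_of_orderOf hl (by omega)
  have hprim : IsPrimitiveRoot l M := hl ▸ IsPrimitiveRoot.orderOf l
  have hμM : μ ^ M = 1 := hμ ▸ pow_orderOf_eq_one μ
  obtain ⟨u, hu, rfl⟩ := hprim.eq_pow_of_pow_eq_one hμM
  have hco : u.Coprime M :=
    (hprim.pow_iff_coprime (by omega) u).mp (hμ ▸ IsPrimitiveRoot.orderOf _)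
  obtain ⟨i, hi, hσ⟩ := SuzukiTwo.aut_eq_pow hm hm0 σ
  obtain ⟨j, hj, hτ⟩ := SuzukiTwo.aut_eq_pow hm hm0 τ
  obtain ⟨i', hi', hσ'⟩ := SuzukiTwo.aut_eq_pow hm hm0 σ'
  obtain ⟨j', hj', hτ'⟩ := SuzukiTwo.aut_eq_pow hm hm0 τ'
  have key : ∀ {i j : ℕ}, (l ^ u) ^ (2 ^ i) * l ^ (2 ^ j) = l → u * 2 ^ i + 2 ^ j ≡ 1 [MOD M] := by
    intro i j he
    let v : Fˣ := Units.mk0 l hl0
    have e1 : v ^ (u * 2 ^ i + 2 ^ j) = v ^ 1 := by
      ext
      simp only [v, Units.val_pow_eq_pow_val, Units.val_mk0]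
      rw [pow_add, pow_mul, he, pow_one]
    have e2 := pow_eq_pow_iff_modEq.mp e1
    have e3 : orderOf v = M := by
      rw [← hl]
      exact (orderOf_units (y := v)).symm
    rwa [e3] at e2
  rw [hσ, hτ] at h
  rw [hσ', hτ'] at h'
  obtain ⟨e1, e2⟩ := hw u i j i' j' hu hco hi hj hi' hj' (key h) (key h')
  subst e1
  subst e2
  constructor
  · ext x
    rw [hσ, hσ']
  · ext x
    rw [hτ, hτ']

/-- **Monomial lemma.** -/
theorem mono {n M : ℕ} (hm : Fintype.card F = 2 ^ n) (hm0 : n ≠ 0) (hM : 2 ≤ M) (hw : HW M n)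
    {μ l : F} (hμ : orderOf μ = M) (hl : orderOf l = M)
    (b : F →+ F →+ F) (h : ∀ x y, b (μ * x) (l * y) = l * b x y) :
    ∃ (C : F) (σ τ : F ≃+* F), (∀ x y, b x y = C * (σ x * τ y)) ∧
      (C ≠ 0 → σ μ * τ l = l ∧ τ ≠ RingEquiv.refl F) := by
  classical
  have hfin : Finite (F ≃+* F) :=
    Finite.of_injective (fun σ : F ≃+* F => (σ : F → F)) DFunLike.coe_injective
  let _ : Fintype (F ≃+* F) := Fintype.ofFinite _
  obtain ⟨c, hc, hw'⟩ := SuzukiTwo.expand_weights μ l l b h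
  have hne : ∀ {σ τ : F ≃+* F}, σ μ * τ l = l → τ ≠ RingEquiv.refl F := by
    intro σ τ he hτ
    rw [hτ] at he
    have hl0 : l ≠ 0 := ne_zero_of_orderOf hl (by omega)
    have h1 : σ μ = 1 := by
      have : σ μ * l = 1 * l := by simpa using he
      exact mul_right_cancel₀ hl0 this
    have h2 : μ = 1 := by
      have : σ μ = σ 1 := by simpa using h1
      exact σ.injective this
    exact ne_one_of_orderOf hμ hM h2
  by_cases hall : ∀ p, c p = 0
  · refine ⟨0, RingEquiv.refl F, RingEquiv.refl F, ?_, fun h0 => absurd rfl h0⟩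
    intro x y
    rw [hc]
    simp [hall]
  · push Not at hall
    obtain ⟨p₀, hp₀⟩ := hall
    refine ⟨c p₀, p₀.1, p₀.2, ?_, fun _ => ⟨hw' p₀ hp₀, hne (hw' p₀ hp₀)⟩⟩
    intro x y
    rw [hc, Finset.sum_eq_single p₀]
    · intro p _ hp
      by_contra hcp
      have hcp' : c p ≠ 0 := fun h0 => hcp (by simp [h0])
      obtain ⟨e1, e2⟩ := weight_uniq hm hm0 hM hw hμ hl (hw' p hcp') (hw' p₀ hp₀)
      exact hp (Prod.ext e1 e2)
    · simp

end Field

end Cfsg.Agent.Lib.PGroup.SuzukiGen
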