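import Mathlib
import Cfsg.Agent.Lib.PGroup.SuzukiGen.Mono

/-!
# Field coordinates on irreducible sections

A finite elementary abelian 2-group with an irreducible automorphism `T`, `T^M = 1`, with all
orbits on the non-identity elements of length divisible by `M`, gets field coordinates with `T`
a multiplication by an element of order `M`.
-/

set_option autoImplicit false

namespace Cfsg.Agent.Lib.PGroup.SuzukiGen

open Polynomial

theorem coordV {V : Type*} [AddCommGroup V] [Module (ZMod 2) V] [Finite V]
    {F : Type*} [Field F] [Fintype F] [CharP F 2]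
    (T : V →ₗ[ZMod 2] V) {q n M : ℕ} (hq : Fintype.card F = q) (hqn : q = 2 ^ n) (h3 : 3 ≤ q)
    (hM : 0 < M) (hMq : M ∣ q - 1) (hord : ∀ d, M ∣ 2 ^ d - 1 → n ∣ d)
    (v₀ : V) (hv₀ : v₀ ≠ 0)
    (hper : ∀ v, T^[M] v = v)
    (hfree : ∀ a v, v ≠ 0 → T^[a] v = v → M ∣ a)
    (hirr : ∀ C : AddSubgroup V, (∀ x ∈ C, T x ∈ C) → C = ⊥ ∨ C = ⊤) :
    ∃ (μ : F) (f : V → F), orderOf μ = M ∧ Function.Bijective f ∧
      (∀ x y, f (x + y) = f x + f y) ∧ ∀ x, f (T x) = μ * f x := by
  classical
  let _ : Algebra (ZMod 2) F := ZMod.algebra F 2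
  have hnt : Nontrivial V := ⟨⟨v₀, 0, hv₀⟩⟩
  have hpowT : ∀ (n : ℕ) (v : V), (T ^ n) v = T^[n] v := fun n v => by
    rw [Module.End.pow_apply]
  have hTq : T ^ q = T := by
    ext v
    have hq1 : q = (q - 1) + 1 := by omega
    obtain ⟨c, hc⟩ := hMq
    have hiter : ∀ (k : ℕ) (w : V), T^[M * k] w = w := by
      intro k w
      induction k with
      | zero => rfl
      | succ k ih => rw [Nat.mul_succ, Function.iterate_add_apply, hper, ih]
    rw [hq1, pow_succ, Module.End.mul_apply, hpowT, hc]
    exact hiter _ _
  have hint : IsIntegral (ZMod 2) T := Algebra.IsIntegral.isIntegral T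
  have hdvd : minpoly (ZMod 2) T ∣ (X ^ q - X : (ZMod 2)[X]) := by
    apply minpoly.dvd
    simp [hTq]
  -- a root of the minimal polynomial in `F`
  obtain ⟨μ, hμ⟩ : ∃ μ : F, aeval μ (minpoly (ZMod 2) T) = 0 := by
    have hs : (X ^ q - X : F[X]).Splits := by
      rw [splits_iff_card_roots]
      subst hq
      rw [FiniteField.roots_X_pow_card_sub_X, FiniteField.X_pow_card_sub_X_natDegree_eq F
        (by omega)]
      simp
    have hne : (X ^ q - X : F[X]) ≠ 0 := FiniteField.X_pow_card_sub_X_ne_zero F (by omega)
    have hdvd' : (minpoly (ZMod 2) T).map (algebraMap (ZMod 2) F) ∣ (X ^ q - X : F[X]) := by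
      have := Polynomial.map_dvd (algebraMap (ZMod 2) F) hdvd
      simpa using this
    have hs' := hs.of_dvd hne hdvd'
    have hdeg : ((minpoly (ZMod 2) T).map (algebraMap (ZMod 2) F)).degree ≠ 0 := by
      rw [Polynomial.degree_map]
      have := minpoly.natDegree_pos hint
      intro h0
      rw [Polynomial.degree_eq_natDegree (minpoly.ne_zero hint)] at h0
      have h1 : (minpoly (ZMod 2) T).natDegree = 0 := by exact_mod_cast h0
      omega
    obtain ⟨a, ha⟩ := hs'.exists_eval_eq_zero hdeg
    exact ⟨a, by rwa [aeval_def, eval₂_eq_eval_map]⟩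
  have hmin : ∀ g : (ZMod 2)[X], aeval T g = 0 → aeval μ g = 0 := by
    intro g hg
    obtain ⟨h, rfl⟩ := minpoly.dvd (ZMod 2) T hg
    simp [hμ]
  have hcomm : ∀ (g : (ZMod 2)[X]) (v : V), aeval T g (T v) = T (aeval T g v) := by
    intro g v
    have h1 : aeval T (g * X) = aeval T (X * g) := by rw [mul_comm]
    have h2 := congrArg (fun e : Module.End (ZMod 2) V => e v) h1
    simpa using h2
  have hkey : ∀ g : (ZMod 2)[X], aeval T g v₀ = 0 → aeval T g = 0 := by
    intro g hg
    let C : AddSubgroup V := (LinearMap.ker (aeval T g)).toAddSubgroup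
    have hC : (∀ x ∈ C, T x ∈ C) := by
      intro x hx
      have hx' : aeval T g x = 0 := hx
      show aeval T g (T x) = 0
      rw [hcomm, hx', map_zero]
    rcases hirr C hC with h | h
    · exfalso
      have : v₀ ∈ C := hg
      rw [h] at this
      exact hv₀ (by simpa using this)
    · ext v
      have : v ∈ C := by rw [h]; trivial
      exact this
  have hgen : ∀ v, ∃ g : (ZMod 2)[X], aeval T g v₀ = v := by
    let C : AddSubgroup V :=
      { carrier := {w | ∃ g : (ZMod 2)[X], aeval T g v₀ = w}
        zero_mem' := ⟨0, by simp⟩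
        add_mem' := by
          rintro a b ⟨g, rfl⟩ ⟨h, rfl⟩
          exact ⟨g + h, by simp⟩
        neg_mem' := by
          rintro a ⟨g, rfl⟩
          exact ⟨-g, by simp⟩ }
    have hC : (∀ x ∈ C, T x ∈ C) := by
      rintro x ⟨g, rfl⟩
      exact ⟨X * g, by simp⟩
    have hv₀C : v₀ ∈ C := ⟨1, by simp⟩
    rcases hirr C hC with h | h
    · exfalso
      rw [h] at hv₀C
      exact hv₀ (by simpa using hv₀C)
    · intro v
      have : v ∈ C := by rw [h]; trivial
      exact this
  choose rep hrep using hgen
  let f : V → F := fun v => aeval μ (rep v)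
  have hf : ∀ g : (ZMod 2)[X], f (aeval T g v₀) = aeval μ g := by
    intro g
    have h1 : aeval T (rep (aeval T g v₀) - g) v₀ = 0 := by
      simp [hrep]
    have h2 := hmin _ (hkey _ h1)
    rw [map_sub, sub_eq_zero] at h2
    exact h2
  have hadd : ∀ x y, f (x + y) = f x + f y := by
    intro x y
    have h1 : x + y = aeval T (rep x + rep y) v₀ := by simp [hrep]
    rw [h1, hf, map_add]
  have hmulT : ∀ x, f (T x) = μ * f x := by
    intro x
    have h1 : T x = aeval T (X * rep x) v₀ := by simp [hrep]
    rw [h1, hf]
    simp [f]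
  have hf1 : f v₀ = 1 := by
    have h1 : v₀ = aeval T (1 : (ZMod 2)[X]) v₀ := by simp
    rw [h1, hf]
    simp
  have hf0 : f 0 = 0 := by
    have := hadd 0 0
    simpa using this
  have hinj0 : ∀ v, f v = 0 → v = 0 := by
    let C : AddSubgroup V :=
      { carrier := {w | f w = 0}
        zero_mem' := hf0
        add_mem' := by
          intro a b ha hb
          show f (a + b) = 0
          have ha' : f a = 0 := ha
          have hb' : f b = 0 := hb
          rw [hadd, ha', hb', add_zero]
        neg_mem' := by
          intro a ha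
          have ha' : f a = 0 := ha
          show f (-a) = 0
          have := hadd a (-a)
          rw [add_neg_cancel, hf0, ha', zero_add] at this
          exact this.symm }
    have hC : (∀ x ∈ C, T x ∈ C) := by
      intro x hx
      have hx' : f x = 0 := hx
      show f (T x) = 0
      rw [hmulT, hx', mul_zero]
    rcases hirr C hC with h | h
    · intro v hv
      have : v ∈ C := hv
      rw [h] at this
      simpa using this
    · exfalso
      have : v₀ ∈ C := by rw [h]; trivial
      have h2 : f v₀ = 0 := this
      rw [hf1] at h2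
      exact one_ne_zero h2
  have hinj : Function.Injective f := by
    intro x y hxy
    have h1 := hadd (x - y) y
    rw [sub_add_cancel, hxy] at h1
    have h2 : f (x - y) = 0 := by
      have : f (x - y) + f y = 0 + f y := by rw [zero_add]; exact h1.symm
      exact add_right_cancel this
    have := hinj0 _ h2
    exact sub_eq_zero.mp this
  have horb : ∀ n, f (T^[n] v₀) = μ ^ n := by
    intro n
    induction n with
    | zero => simpa using hf1
    | succ n ih =>
      rw [Function.iterate_succ_apply', hmulT, ih, pow_succ, mul_comm]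
  have hμM : μ ^ M = 1 := by
    rw [← horb, hper, hf1]
  have hμ0 : μ ≠ 0 := by
    intro h0
    rw [h0, zero_pow (by omega)] at hμM
    exact zero_ne_one hμM
  have hordμ : orderOf μ = M := by
    apply Nat.dvd_antisymm (orderOf_dvd_of_pow_eq_one hμM)
    apply hfree (orderOf μ) v₀ hv₀
    apply hinj
    rw [horb, pow_orderOf_eq_one, hf1]
  have hbij : Function.Bijective f := by
    apply hinj.bijective_of_nat_card_le
    -- the number of non-zero vectors is divisible by `M`
    let S : Set V := {v | v ≠ 0}
    haveI : Finite S := inferInstance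
    have hTinj : Function.Injective T := by
      intro x y hxy
      have h1 : T^[M] x = T^[M] y := by
        obtain ⟨M', rfl⟩ : ∃ M', M = M' + 1 := ⟨M - 1, by omega⟩
        rw [Function.iterate_succ_apply, Function.iterate_succ_apply, hxy]
      rwa [hper, hper] at h1
    have hdvd : M ∣ Nat.card S := by
      apply free_set_dvd S T
      · intro x hx h0
        apply hx
        apply hTinj
        rw [h0, map_zero]
      · exact hTinj.injOn
      · intro x hx a ha
        exact hfree a x hx ha
    have hS : Nat.card S + 1 = Nat.card V := by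
      haveI := Fintype.ofFinite V
      rw [Nat.card_eq_fintype_card, Nat.card_eq_fintype_card]
      have := Fintype.card_subtype_compl (fun x : V => x = 0)
      simp only [Fintype.card_unique] at this
      have h4 : 0 < Fintype.card V := Fintype.card_pos
      have h5 : Fintype.card S = Fintype.card {x : V // ¬ x = 0} := rfl
      omega
    haveI := Fintype.ofFinite V
    have hc : Nat.card V = 2 ^ Module.finrank (ZMod 2) V := by
      rw [Nat.card_eq_fintype_card, Module.card_eq_pow_finrank (K := ZMod 2) (V := V)]
      simp
    set c := Module.finrank (ZMod 2) V with hc'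
    have hc0 : c ≠ 0 := by
      intro h0
      rw [h0, pow_zero] at hc
      have := Finite.one_lt_card (α := V)
      omega
    have hnc : n ∣ c := by
      apply hord
      rw [← hc, ← hS]
      simpa using hdvd
    have hle : n ≤ c := Nat.le_of_dvd (Nat.pos_of_ne_zero hc0) hnc
    rw [hc, Nat.card_eq_fintype_card, hq, hqn]
    exact Nat.pow_le_pow_right (by norm_num) hle
  exact ⟨μ, f, hordμ, hbij, hadd, hmulT⟩

theorem coordG {G : Type*} [Group G] [Finite G] [Nontrivial G] (hG : IsPGroup 2 G) (T : G →* G)
    {F : Type*} [Field F] [Fintype F] [CharP F 2] {q n M : ℕ} (hq : Fintype.card F = q)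
    (hqn : q = 2 ^ n) (h3 : 3 ≤ q)
    (hM : 0 < M) (hMq : M ∣ q - 1) (hord : ∀ d, M ∣ 2 ^ d - 1 → n ∣ d)
    (hper : ∀ g, T^[M] g = g)
    (hfree : ∀ a g, g ≠ 1 → T^[a] g = g → M ∣ a)
    (hirr : ∀ C : Subgroup G, (∀ x ∈ C, T x ∈ C) → C = ⊥ ∨ C = ⊤) :
    (∀ x y : G, x * y = y * x) ∧ (∀ x : G, x * x = 1) ∧
      ∃ (μ : F) (f : G → F), orderOf μ = M ∧ Function.Bijective f ∧
        (∀ x y, f (x * y) = f x + f y) ∧ ∀ x, f (T x) = μ * f x := by
  classical
  have hsurj : Function.Surjective T := by
    intro x
    refine ⟨T^[M - 1] x, ?_⟩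
    have h1 : M = (M - 1) + 1 := by omega
    have h2 := hper x
    rw [h1, Function.iterate_succ_apply'] at h2
    exact h2
  -- commutativity
  have hc : ∀ x y : G, x * y = y * x := by
    have hcen : Nontrivial (Subgroup.center G) := hG.center_nontrivial
    have hC : ∀ x ∈ Subgroup.center G, T x ∈ Subgroup.center G := by
      intro x hx
      rw [Subgroup.mem_center_iff] at hx ⊢
      intro g
      obtain ⟨g', rfl⟩ := hsurj g
      rw [← map_mul, ← map_mul, hx]
    rcases hirr _ hC with h | h
    · exfalso
      rw [h] at hcen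
      exact not_nontrivial _ hcen
    · intro x y
      have : x ∈ Subgroup.center G := by rw [h]; trivial
      rw [Subgroup.mem_center_iff] at this
      exact (this y).symm
  -- exponent 2
  have he : ∀ x : G, x * x = 1 := by
    let C : Subgroup G :=
      { carrier := {x | x * x = 1}
        one_mem' := by simp
        mul_mem' := by
          intro a b (ha : a * a = 1) (hb : b * b = 1)
          show a * b * (a * b) = 1
          calc a * b * (a * b) = a * (b * a) * b := by group
            _ = a * (a * b) * b := by rw [hc b a]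
            _ = a * a * (b * b) := by group
            _ = 1 := by rw [ha, hb, one_mul]
        inv_mem' := by
          intro a (ha : a * a = 1)
          show a⁻¹ * a⁻¹ = 1
          rw [← mul_inv_rev, ha, inv_one] }
    have hC : ∀ x ∈ C, T x ∈ C := by
      intro x (hx : x * x = 1)
      show T x * T x = 1
      rw [← map_mul, hx, map_one]
    have hd : 2 ∣ Nat.card G := by
      obtain ⟨k, hk⟩ := IsPGroup.iff_card.mp hG
      rw [hk]
      have hk0 : k ≠ 0 := by
        rintro rfl
        have : Nat.card G = 1 := by simpa using hk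
        have h1 := Finite.one_lt_card (α := G)
        omega
      exact dvd_pow_self 2 hk0
    obtain ⟨x, hx⟩ := exists_prime_orderOf_dvd_card' 2 hd
    have hx2 : x * x = 1 := by
      rw [← pow_two, ← hx]
      exact pow_orderOf_eq_one x
    have hx1 : x ≠ 1 := by
      rintro rfl
      simp at hx
    rcases hirr C hC with h | h
    · exfalso
      have : x ∈ C := hx2
      rw [h] at this
      exact hx1 (by simpa using this)
    · intro y
      have : y ∈ C := by rw [h]; trivial
      exact this
  refine ⟨hc, he, ?_⟩
  -- the vector space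
  let _ : CommGroup G := { (inferInstance : Group G) with mul_comm := hc }
  let V := Additive G
  let _ : Module (ZMod 2) V := AddCommGroup.zmodModule (n := 2) (by
    intro x
    rw [two_nsmul]
    exact he (Additive.toMul x))
  let T' : V →ₗ[ZMod 2] V := AddMonoidHom.toZModLinearMap 2 (MonoidHom.toAdditive T)
  have hT' : ∀ (n : ℕ) (x : G), T'^[n] (Additive.ofMul x) = Additive.ofMul (T^[n] x) := by
    intro n x
    induction n with
    | zero => rfl
    | succ n ih =>
      rw [Function.iterate_succ_apply', ih, Function.iterate_succ_apply']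
      rfl
  obtain ⟨g₀, hg₀⟩ := exists_ne (1 : G)
  obtain ⟨μ, f, hμ, hb, hadd, hm⟩ := coordV (F := F) T' hq hqn h3 hM hMq hord (Additive.ofMul g₀)
    (by
      intro h
      exact hg₀ (Additive.ofMul.injective h))
    (by
      intro v
      have := hT' M (Additive.toMul v)
      rw [hper] at this
      exact this)
    (by
      intro a v hv h
      have h1 := hT' a (Additive.toMul v)
      have h2 : T^[a] (Additive.toMul v) = Additive.toMul v := by
        apply Additive.ofMul.injective
        rw [← h1]
        exact h
      exact hfree a _ (fun h0 => hv (Additive.toMul.injective h0)) h2)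
    (by
      intro C hC
      let C' : Subgroup G := AddSubgroup.toSubgroup' C
      have hC' : ∀ x ∈ C', T x ∈ C' := by
        intro x hx
        exact hC (Additive.ofMul x) hx
      rcases hirr C' hC' with h | h
      · left
        ext v
        have : (Additive.toMul v ∈ C') ↔ v ∈ C := Iff.rfl
        rw [← this, h]
        simp only [Subgroup.mem_bot, AddSubgroup.mem_bot]
        exact ⟨fun h0 => Additive.toMul.injective h0, fun h0 => by rw [h0]; rfl⟩
      · right
        ext v
        have : (Additive.toMul v ∈ C') ↔ v ∈ C := Iff.rfl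
        rw [← this, h]
        simp)
  refine ⟨μ, fun x => f (Additive.ofMul x), hμ, ?_, ?_, ?_⟩
  · exact hb.comp Additive.ofMul.bijective
  · intro x y
    exact hadd (Additive.ofMul x) (Additive.ofMul y)
  · intro x
    exact hm (Additive.ofMul x)

end Cfsg.Agent.Lib.PGroup.SuzukiGen
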