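import Mathlib
import Cfsg.Agent.Lib.SolvLin.Top
import Cfsg.Agent.Lib.PGroup.SuzukiTwo.Quad

/-!
# A solvable transitive linear group over `F₂` contains a large semiregular cyclic subgroup
-/

set_option autoImplicit false
set_option linter.style.haveILetI false
set_option linter.unusedSectionVars false
set_option linter.unusedVariables false

namespace Cfsg.Agent.Lib.PGroup.SuzukiGen

/-- The order of the automorphism group of a finite field of characteristic 2 divides `n`. -/
theorem card_aut_dvd {F : Type*} [Field F] [Fintype F] [CharP F 2] {n : ℕ}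
    (hm : Fintype.card F = 2 ^ n) (hm0 : n ≠ 0) : Nat.card (RingAut F) ∣ n := by
  classical
  let Fr : RingAut F := frobeniusEquiv F 2
  have hall : ∀ φ : RingAut F, φ ∈ Subgroup.zpowers Fr := by
    intro φ
    obtain ⟨d, -, hd⟩ := SuzukiTwo.aut_eq_pow hm hm0 φ
    refine ⟨(d : ℤ), ?_⟩
    ext x
    simp only [zpow_natCast]
    rw [hd]
    exact SuzukiTwo.frob_pow_apply d x
  rw [← orderOf_eq_card_of_forall_mem_zpowers hall]
  apply orderOf_dvd_of_pow_eq_one
  ext x
  have h1 := SuzukiTwo.frob_pow_apply (F := F) n x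
  show (Fr ^ n) x = x
  rw [show (Fr ^ n) x = x ^ (2 ^ n) from h1, ← hm, FiniteField.pow_card]

theorem partB {V : Type*} [AddCommGroup V] [Module (ZMod 2) V] [Finite V] {X : Type*} [Group X]
    [Finite X] [Group.IsSolvable X] (ρ : X →* (V ≃ₗ[ZMod 2] V)) (hρ : Function.Injective ρ)
    (htrans : ∀ v w : V, v ≠ 0 → w ≠ 0 → ∃ g : X, ρ g v = w) {n : ℕ} (hn : 2 ≤ n)
    (hcard : Nat.card V = 2 ^ n) :
    ∃ (ξ : X) (M t : ℕ), M * t = 2 ^ n - 1 ∧ t ∣ n ∧ ξ ^ M = 1 ∧
      ∀ v : V, v ≠ 0 → ∀ b : ℕ, ρ (ξ ^ b) v = v → M ∣ b := by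
  classical
  haveI : Fact (Nat.Prime 2) := ⟨Nat.prime_two⟩
  have h4 : 4 ≤ 2 ^ n := by
    calc 4 = 2 ^ 2 := rfl
      _ ≤ 2 ^ n := Nat.pow_le_pow_right (by norm_num) hn
  haveI : Nontrivial V := by
    rw [← Finite.one_lt_card_iff_nontrivial, hcard]
    omega
  rcases Cfsg.Agent.Lib.SolvLin.huppert ρ hρ htrans with ⟨F, iF, iFt, e, hsemi⟩ | hex
  swap
  · exfalso
    obtain ⟨n', rfl⟩ : ∃ n', n = n' + 1 := ⟨n - 1, by omega⟩
    rw [hcard, pow_succ] at hex
    simp only [Set.mem_insert_iff, Set.mem_singleton_iff] at hex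
    omega
  -- the field
  have h2F : (2 : F) = 0 := by
    obtain ⟨v, hv⟩ := exists_ne (0 : V)
    have h1 : v + v = 0 := by
      have : (2 : ZMod 2) • v = 0 := by
        have h2 : (2 : ZMod 2) = 0 := CharTwo.two_eq_zero
        rw [h2, zero_smul]
      rwa [two_smul] at this
    have h3 : e v + e v = 0 := by rw [← map_add, h1, map_zero]
    have h5 : e v ≠ 0 := by
      intro h0
      exact hv (e.injective (by rw [h0, map_zero]))
    have h6 : (2 : F) * e v = 0 := by rw [two_mul]; exact h3
    exact (mul_eq_zero.mp h6).resolve_right h5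
  haveI : CharP F 2 := CharTwo.of_one_ne_zero_of_two_eq_zero one_ne_zero h2F
  have hF : Fintype.card F = 2 ^ n := by
    rw [← Nat.card_eq_fintype_card, ← hcard]
    exact (Nat.card_congr e.toEquiv).symm
  choose a σ hg using hsemi
  obtain ⟨v₁, hv₁⟩ : ∃ v₁ : V, e v₁ = 1 := ⟨e.symm 1, by simp⟩
  have hv₁0 : v₁ ≠ 0 := by
    rintro rfl
    rw [map_zero] at hv₁
    exact zero_ne_one hv₁
  have ha0 : ∀ g, a g ≠ 0 := by
    intro g h0
    have h1 := hg g v₁
    rw [h0, zero_mul] at h1
    have h2 : ρ g v₁ = 0 := e.injective (by rw [h1, map_zero])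
    exact hv₁0 ((ρ g).injective (by rw [h2, map_zero]))
  have hmul1 : ∀ g h : X, a (g * h) = a g * σ g (a h) := by
    intro g h
    have h1 := hg (g * h) v₁
    rw [map_mul, LinearEquiv.mul_apply, hg g, hg h, hv₁, map_one, map_one, mul_one, mul_one] at h1
    exact h1.symm
  have hmul2 : ∀ (g h : X) (x : F), σ (g * h) x = σ g (σ h x) := by
    intro g h x
    obtain ⟨v, rfl⟩ := e.surjective x
    have h1 := hg (g * h) v
    rw [map_mul, LinearEquiv.mul_apply, hg g, hg h, map_mul, ← mul_assoc, ← hmul1] at h1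
    exact (mul_left_cancel₀ (ha0 _) h1).symm
  have hσ1 : ∀ x : F, σ 1 x = x := by
    intro x
    have h1 := hmul2 1 1 x
    rw [mul_one] at h1
    exact ((σ 1).injective h1).symm
  let Φ : X →* RingAut F :=
    { toFun := σ
      map_one' := by
        ext x
        exact hσ1 x
      map_mul' := by
        intro g h
        ext x
        exact hmul2 g h x }
  let N : Subgroup X := Φ.ker
  have hmemN : ∀ g, g ∈ N ↔ ∀ x, σ g x = x := by
    intro g
    rw [MonoidHom.mem_ker]
    constructor
    · intro h x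
      have := congrArg (fun f : RingAut F => f x) h
      exact this
    · intro h
      ext x
      exact h x
  -- multiplication on `N`
  let f : N →* F :=
    { toFun := fun g => a g
      map_one' := by
        have h1 := hmul1 1 1
        rw [mul_one, hσ1] at h1
        have h2 : a 1 * 1 = a 1 * a 1 := by rw [mul_one]; exact h1
        exact (mul_left_cancel₀ (ha0 1) h2).symm
      map_mul' := by
        intro g h
        show a (g * h : X) = a g * a h
        rw [hmul1, (hmemN g).mp g.2] }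
  have hf : Function.Injective f := by
    intro g h hgh
    have hgh' : a g = a h := hgh
    apply Subtype.ext
    apply hρ
    ext v
    apply e.injective
    rw [hg, hg, (hmemN g).mp g.2, (hmemN h).mp h.2, hgh']
  haveI hcyc : IsCyclic N := isCyclic_of_injective_ringHom f hf
  obtain ⟨ξ₀, hξ₀⟩ := IsCyclic.exists_generator (α := N)
  set M := Nat.card N with hM
  have hordξ : orderOf ξ₀ = M := orderOf_eq_card_of_forall_mem_zpowers hξ₀
  set c := f ξ₀ with hc
  have hordc : orderOf c = M := by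
    rw [hc, orderOf_injective f hf, hordξ]
  have hMpos : 0 < M := Nat.card_pos
  have hc0 : c ≠ 0 := ha0 _
  have hMdvd : M ∣ 2 ^ n - 1 := by
    rw [← hordc, ← hF]
    exact orderOf_dvd_of_pow_eq_one (FiniteField.pow_card_sub_one_eq_one c hc0)
  obtain ⟨t, ht⟩ := hMdvd
  have hind : Nat.card X = M * Nat.card Φ.range := by
    rw [← Subgroup.index_ker, ← Subgroup.card_mul_index Φ.ker]
  have hrdvd : Nat.card Φ.range ∣ n :=
    (Subgroup.card_subgroup_dvd_card Φ.range).trans (card_aut_dvd hF (by omega))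
  have hXdvd : 2 ^ n - 1 ∣ Nat.card X := by
    have := Cfsg.Agent.Lib.SolvLin.card_sub_one_dvd ρ htrans
    rwa [hcard] at this
  rw [hind, ht] at hXdvd
  have htr : t ∣ Nat.card Φ.range := Nat.dvd_of_mul_dvd_mul_left hMpos hXdvd
  refine ⟨(ξ₀ : X), M, t, ht.symm, htr.trans hrdvd, ?_, ?_⟩
  · have h1 : ξ₀ ^ M = 1 := by
      rw [← hordξ]
      exact pow_orderOf_eq_one ξ₀
    exact congrArg Subtype.val h1
  · intro v hv b hb
    have h0 : e v ≠ 0 := fun h => hv (e.injective (by rw [h, map_zero]))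
    have h1 : e (ρ ((ξ₀ : X) ^ b) v) = c ^ b * e v := by
      have h2 : ((ξ₀ : X) ^ b) = ((ξ₀ ^ b : N) : X) := rfl
      rw [hg, h2, (hmemN _).mp (ξ₀ ^ b).2]
      congr 1
      rw [hc, ← map_pow]
      rfl
    rw [hb] at h1
    have h3 : c ^ b = 1 := by
      have : c ^ b * e v = 1 * e v := by rw [one_mul]; exact h1.symm
      exact mul_right_cancel₀ h0 this
    rw [← hordc]
    exact orderOf_dvd_of_pow_eq_one h3

/-- The multiplicative form of `partB`. -/
theorem partB_mul {W : Type*} [Group W] [Finite W] (hcW : ∀ a b : W, a * b = b * a)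
    (hW : ∀ w : W, w * w = 1) {Y : Type*} [Group Y] [Finite Y] [Group.IsSolvable Y]
    (act : Y →* MulAut W) (htrans : ∀ v w : W, v ≠ 1 → w ≠ 1 → ∃ y : Y, act y v = w) {n : ℕ}
    (hn : 2 ≤ n) (hcard : Nat.card W = 2 ^ n) :
    ∃ (y : Y) (M t : ℕ), M * t = 2 ^ n - 1 ∧ t ∣ n ∧ act (y ^ M) = 1 ∧
      ∀ v : W, v ≠ 1 → ∀ b : ℕ, act (y ^ b) v = v → M ∣ b := by
  classical
  letI iW : CommGroup W := { (inferInstance : Group W) with mul_comm := hcW }
  letI iM : Module (ZMod 2) (Additive W) := AddCommGroup.zmodModule (n := 2) (by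
    intro x
    rw [two_nsmul]
    exact hW (Additive.toMul x))
  let toLin : MulAut W → (Additive W ≃ₗ[ZMod 2] Additive W) := fun g =>
    LinearEquiv.ofBijective
      (AddMonoidHom.toZModLinearMap 2 (MonoidHom.toAdditive g.toMonoidHom))
      (by
        constructor
        · intro a b h
          exact Additive.toMul.injective (g.injective (Additive.ofMul.injective h))
        · intro b
          obtain ⟨a, ha⟩ := g.surjective (Additive.toMul b)
          exact ⟨Additive.ofMul a, Additive.toMul.injective ha⟩)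
  have htoLin : ∀ (g : MulAut W) (x : W), toLin g (Additive.ofMul x) = Additive.ofMul (g x) :=
    fun _ _ => rfl
  let ρ₀ : Y →* (Additive W ≃ₗ[ZMod 2] Additive W) := MonoidHom.mk' (fun y => toLin (act y)) (by
    intro y y'
    ext x
    show Additive.ofMul (act (y * y') (Additive.toMul x)) = _
    rw [map_mul]
    rfl)
  have hρ₀ : ∀ (y : Y) (x : W), ρ₀ y (Additive.ofMul x) = Additive.ofMul (act y x) :=
    fun _ _ => rfl
  let X := ρ₀.range
  haveI : Finite X := Finite.of_surjective ρ₀.rangeRestrict ρ₀.rangeRestrict_surjective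
  haveI : Group.IsSolvable X := Group.isSolvable_of_surjective ρ₀.rangeRestrict_surjective
  obtain ⟨ξ, M, t, h1, h2, h3, h4⟩ := partB (V := Additive W) (X := X) X.subtype
    (Subgroup.subtype_injective X)
    (by
      intro v w hv hw
      obtain ⟨y, hy⟩ := htrans (Additive.toMul v) (Additive.toMul w)
        (fun h => hv (Additive.toMul.injective h)) (fun h => hw (Additive.toMul.injective h))
      exact ⟨ρ₀.rangeRestrict y, Additive.toMul.injective hy⟩)
    hn (by rw [Nat.card_congr (Additive.toMul : Additive W ≃ W)]; exact hcard)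
  obtain ⟨y, hy⟩ := ρ₀.rangeRestrict_surjective ξ
  have hpow : ∀ (b : ℕ), X.subtype (ξ ^ b) = ρ₀ (y ^ b) := by
    intro b
    rw [← hy, map_pow, map_pow]
    rfl
  refine ⟨y, M, t, h1, h2, ?_, ?_⟩
  · have h5 := hpow M
    rw [h3, map_one] at h5
    ext x
    have h6 := congrArg (fun f : Additive W ≃ₗ[ZMod 2] Additive W => f (Additive.ofMul x)) h5
    simp only [hρ₀] at h6
    exact (Additive.ofMul.injective h6).symm
  · intro v hv b hb
    apply h4 (Additive.ofMul v) (fun h => hv (Additive.ofMul.injective h)) b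
    rw [hpow, hρ₀, hb]

end Cfsg.Agent.Lib.PGroup.SuzukiGen
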