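import Mathlib
import Cfsg.Agent.Lib.PGroup.SuzukiGen.Coord

/-!
# The set-up for Higman's theorem

`P` is a finite 2-group with `q - 1` central involutions, `q = 2 ^ n`, `ξ` an automorphism with
`ξ ^ M = 1`, `M ∣ q - 1`, all of whose orbits on the involutions have length `M`, where the order
of `2` modulo `M` is `n`, and the weight relation modulo `M` has at most one solution.
-/

set_option autoImplicit false
set_option linter.style.haveILetI false
set_option linter.unusedSectionVars false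
set_option linter.unusedVariables false

namespace Cfsg.Agent.Lib.PGroup.SuzukiGen

open scoped commutatorElement

variable {P : Type*} [Group P]

/-- The Higman set-up. -/
structure Setup (ξ : P →* P) (q M n : ℕ) : Prop where
  fin : Finite P
  pg : IsPGroup 2 P
  per : ∀ x, ξ^[M] x = x
  card : Nat.card {x : P // x ≠ 1 ∧ x * x = 1} + 1 = q
  central : ∀ x : P, x ≠ 1 → x * x = 1 → ∀ g, g * x = x * g
  freeOm : ∀ (a : ℕ) (x : P), x ≠ 1 → x * x = 1 → ξ^[a] x = x → M ∣ a
  qpow : q = 2 ^ n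
  n2 : 2 ≤ n
  M2 : 2 ≤ M
  Mdvd : M ∣ q - 1
  hord : ∀ d, M ∣ 2 ^ d - 1 → n ∣ d
  hw : HW M n

/-- `H` is `ξ`-invariant. -/
def IsInv (ξ : P →* P) (H : Subgroup P) : Prop := ∀ x ∈ H, ξ x ∈ H

theorem IsInv.iter {ξ : P →* P} {H : Subgroup P} (h : IsInv ξ H) {x : P} (hx : x ∈ H) (n : ℕ) :
    ξ^[n] x ∈ H := by
  induction n with
  | zero => exact hx
  | succ n ih =>
    rw [Function.iterate_succ_apply']
    exact h _ ih

theorem iter_comm (ξ : P →* P) (x y : P) (n : ℕ) : ξ^[n] ⁅x, y⁆ = ⁅ξ^[n] x, ξ^[n] y⁆ := by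
  rw [commutatorElement_def, commutatorElement_def, iterate_map_mul, iterate_map_mul,
    iterate_map_mul, iterate_map_inv, iterate_map_inv]

theorem xi_comm (ξ : P →* P) (x y : P) : ξ ⁅x, y⁆ = ⁅ξ x, ξ y⁆ := by
  rw [commutatorElement_def, commutatorElement_def, map_mul, map_mul, map_mul, map_inv, map_inv]

namespace Setup

variable {ξ : P →* P} {q M n : ℕ} (S : Setup ξ q M n)
include S

theorem three : 3 ≤ q := by
  rw [S.qpow]
  have h1 : 2 ^ 2 ≤ 2 ^ n := Nat.pow_le_pow_right (by norm_num) S.n2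
  omega

theorem surj : Function.Surjective ξ := by
  intro x
  refine ⟨ξ^[M - 1] x, ?_⟩
  have h1 : M = (M - 1) + 1 := by have := S.M2; omega
  have h2 := S.per x
  rw [h1, Function.iterate_succ_apply'] at h2
  exact h2

theorem inj : Function.Injective ξ := by
  haveI := S.fin
  exact Finite.injective_iff_surjective.mpr S.surj

theorem inv_of_xi {H : Subgroup P} (hH : IsInv ξ H) {x : P} (hx : ξ x ∈ H) : x ∈ H := by
  have h1 : M = (M - 1) + 1 := by have := S.M2; omega
  have h2 := S.per x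
  rw [h1, Function.iterate_succ_apply] at h2
  rw [← h2]
  exact hH.iter hx _

theorem iter_ne_one {x : P} (hx : x ≠ 1) (n : ℕ) : ξ^[n] x ≠ 1 := by
  induction n with
  | zero => exact hx
  | succ n ih =>
    rw [Function.iterate_succ_apply']
    intro h
    apply ih
    apply S.inj
    rw [h, map_one]

theorem iter_sq {x : P} (hx : x * x = 1) (n : ℕ) : ξ^[n] x * ξ^[n] x = 1 := by
  rw [← iterate_map_mul, hx, iterate_map_one]

/-- Some involution exists. -/
theorem exists_invol : ∃ z : P, z ≠ 1 ∧ z * z = 1 := by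
  by_contra h
  push Not at h
  have : IsEmpty {x : P // x ≠ 1 ∧ x * x = 1} := ⟨fun x => h x.1 x.2.1 x.2.2⟩
  have h1 := S.card
  rw [Nat.card_of_isEmpty] at h1
  have := S.three
  omega

/-- All involutions are central. -/
theorem invol_central {x : P} (hx : x ≠ 1) (hx2 : x * x = 1) (g : P) : g * x = x * g :=
  S.central x hx hx2 g

/-- The subgroup of elements with square 1. -/
def Om : Subgroup P where
  carrier := {x | x * x = 1}
  one_mem' := by simp
  mul_mem' := by
    intro a b (ha : a * a = 1) (hb : b * b = 1)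
    show a * b * (a * b) = 1
    by_cases hb1 : b = 1
    · rw [hb1]; simpa using ha
    · calc a * b * (a * b) = a * (b * a) * b := by group
        _ = a * (a * b) * b := by rw [S.invol_central hb1 hb a]
        _ = a * a * (b * b) := by group
        _ = 1 := by rw [ha, hb, one_mul]
  inv_mem' := by
    intro a (ha : a * a = 1)
    show a⁻¹ * a⁻¹ = 1
    rw [← mul_inv_rev, ha, inv_one]

theorem mem_Om {x : P} : x ∈ S.Om ↔ x * x = 1 := Iff.rfl

theorem Om_central {x : P} (hx : x ∈ S.Om) (g : P) : g * x = x * g := by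
  by_cases h : x = 1
  · rw [h]; simp
  · exact S.invol_central h hx g

theorem Om_inv : IsInv ξ S.Om := by
  intro x (hx : x * x = 1)
  show ξ x * ξ x = 1
  rw [← map_mul, hx, map_one]

theorem card_Om : Nat.card S.Om = q := by
  classical
  haveI := S.fin
  have h1 := S.card
  let e : {x : P // x ≠ 1 ∧ x * x = 1} ≃ {x : S.Om // x ≠ 1} :=
    { toFun := fun x => ⟨⟨x.1, x.2.2⟩, fun h => x.2.1 (congrArg Subtype.val h)⟩
      invFun := fun x => ⟨x.1.1, fun h => x.2 (Subtype.ext h), x.1.2⟩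
      left_inv := fun x => rfl
      right_inv := fun x => rfl }
  rw [Nat.card_congr e] at h1
  have h2 : Nat.card {x : S.Om // x ≠ 1} + 1 = Nat.card S.Om := by
    have := Fintype.ofFinite S.Om
    rw [Nat.card_eq_fintype_card, Nat.card_eq_fintype_card]
    rw [Fintype.card_subtype_compl (fun x : S.Om => x = 1)]
    simp only [Fintype.card_unique]
    have : 0 < Fintype.card S.Om := Fintype.card_pos
    omega
  omega

/-- An element `≠ 1` has an involution among its `2`-power powers. -/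
theorem exists_pow_invol {x : P} (hx : x ≠ 1) :
    ∃ k : ℕ, x ^ (2 ^ k) ≠ 1 ∧ x ^ (2 ^ k) * x ^ (2 ^ k) = 1 := by
  haveI := S.fin
  haveI : Fact (Nat.Prime 2) := ⟨Nat.prime_two⟩
  obtain ⟨k, hk⟩ := IsPGroup.iff_orderOf.mp S.pg x
  have hk0 : k ≠ 0 := by
    rintro rfl
    have : orderOf x = 1 := by simpa using hk
    exact hx (orderOf_eq_one_iff.mp this)
  obtain ⟨j, rfl⟩ := Nat.exists_eq_succ_of_ne_zero hk0
  refine ⟨j, ?_, ?_⟩
  · intro h
    have h1 := orderOf_dvd_of_pow_eq_one h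
    rw [hk] at h1
    have h2 := (Nat.pow_dvd_pow_iff_le_right (by norm_num : 1 < 2)).mp h1
    omega
  · rw [← pow_add, ← two_mul, ← pow_succ', ← hk]
    exact pow_orderOf_eq_one x

omit S in
/-- The non-identity elements of a subgroup. -/
theorem card_ne_one (W : Subgroup P) [Finite W] :
    Nat.card {x : P | x ∈ W ∧ x ≠ 1} + 1 = Nat.card W := by
  classical
  let e : {x : P | x ∈ W ∧ x ≠ 1} ≃ {x : W // x ≠ 1} :=
    { toFun := fun x => ⟨⟨x.1, x.2.1⟩, fun h => x.2.2 (congrArg Subtype.val h)⟩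
      invFun := fun x => ⟨x.1.1, x.1.2, fun h => x.2 (Subtype.ext h)⟩
      left_inv := fun x => rfl
      right_inv := fun x => rfl }
  rw [Nat.card_congr e]
  have := Fintype.ofFinite W
  rw [Nat.card_eq_fintype_card, Nat.card_eq_fintype_card]
  rw [Fintype.card_subtype_compl (fun x : W => x = 1)]
  simp only [Fintype.card_unique]
  have : 0 < Fintype.card W := Fintype.card_pos
  omega

/-- The order of `2` argument: if `M ∣ 2 ^ c - 1` and `c ≠ 0` then `q ≤ 2 ^ c`. -/
theorem le_of_dvd_sub_one {c : ℕ} (hc : c ≠ 0) (h : M ∣ 2 ^ c - 1) : q ≤ 2 ^ c := by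
  have h1 := S.hord c h
  rw [S.qpow]
  exact Nat.pow_le_pow_right (by norm_num) (Nat.le_of_dvd (Nat.pos_of_ne_zero hc) h1)

/-- A nontrivial invariant subgroup of `Om` is everything. -/
theorem Om_irr {H : Subgroup P} (hH : IsInv ξ H) {z : P} (hz : z ∈ H) (hz1 : z ≠ 1)
    (hz2 : z * z = 1) : S.Om ≤ H := by
  classical
  haveI := S.fin
  let W : Subgroup P := H ⊓ S.Om
  have hWi : IsInv ξ W := fun x hx => ⟨hH _ hx.1, S.Om_inv _ hx.2⟩
  have hWO : W ≤ S.Om := inf_le_right
  have hd : M ∣ Nat.card {x : P | x ∈ W ∧ x ≠ 1} := by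
    apply free_set_dvd _ ξ
    · intro x hx
      refine ⟨hWi _ hx.1, fun h => hx.2 (S.inj (by rw [h, map_one]))⟩
    · exact S.inj.injOn
    · intro x hx a ha
      exact S.freeOm a x hx.2 (hWO hx.1) ha
  have hc1 := card_ne_one W
  obtain ⟨c, hc⟩ := IsPGroup.iff_card.mp (S.pg.to_subgroup W)
  have hc0 : c ≠ 0 := by
    rintro rfl
    have h1 : Nat.card {x : P | x ∈ W ∧ x ≠ 1} = 0 := by
      rw [hc] at hc1
      simpa using hc1
    haveI : Finite {x : P | x ∈ W ∧ x ≠ 1} := inferInstance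
    have h2 := (Finite.card_eq_zero_iff (α := {x : P | x ∈ W ∧ x ≠ 1})).mp h1
    exact h2.false ⟨z, ⟨hz, hz2⟩, hz1⟩
  have hq : q ≤ Nat.card W := by
    rw [hc]
    apply S.le_of_dvd_sub_one hc0
    rw [← hc, ← hc1]
    simpa using hd
  have heq : W = S.Om := by
    apply Subgroup.eq_of_le_of_card_ge hWO
    rw [S.card_Om]
    exact hq
  intro x hx
  have : x ∈ W := by rw [heq]; exact hx
  exact this.1

/-- A nontrivial invariant subgroup contains `Om`. -/
theorem Om_le {H : Subgroup P} (hH : IsInv ξ H) (hne : H ≠ ⊥) : S.Om ≤ H := by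
  obtain ⟨a, ha⟩ := Subgroup.ne_bot_iff_exists_ne_one.mp hne
  have ha' : (a : P) ≠ 1 := fun h => ha (Subtype.ext h)
  obtain ⟨k, hk1, hk2⟩ := S.exists_pow_invol ha'
  exact S.Om_irr hH (H.pow_mem a.2 _) hk1 hk2

/-- An element with square `1` lies in every nontrivial invariant subgroup. -/
theorem mem_of_sq {H : Subgroup P} (hH : IsInv ξ H) (hne : H ≠ ⊥) {x : P} (hx : x * x = 1) :
    x ∈ H := S.Om_le hH hne hx

/-- Elements moving no non-identity element. -/
theorem no_fix {a : ℕ} {y : P} (hy : y ≠ 1) (h : ξ^[a] y = y) : M ∣ a := by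
  obtain ⟨k, hk1, hk2⟩ := S.exists_pow_invol hy
  apply S.freeOm a _ hk1 hk2
  rw [iterate_map_pow, h]

/-- Freeness on sections. -/
theorem free_mod {B : Subgroup P} (hB : IsInv ξ B) {a : ℕ} (ha : ¬ M ∣ a) {x : P}
    (hx : x⁻¹ * ξ^[a] x ∈ B) : x ∈ B := by
  haveI := S.fin
  -- the map `y ↦ y⁻¹ * σ y` is injective on `P`
  have hinj : Function.Injective (fun y : P => y⁻¹ * ξ^[a] y) := by
    intro u v huv
    simp only at huv
    have h1 : ξ^[a] (v * u⁻¹) = v * u⁻¹ := by
      rw [iterate_map_mul, iterate_map_inv]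
      have h2 : ξ^[a] v = v * (u⁻¹ * ξ^[a] u) := by rw [huv]; group
      rw [h2]; group
    by_contra hne
    have hne' : v * u⁻¹ ≠ 1 := by
      intro h0
      apply hne
      have : v = u := by
        rw [mul_inv_eq_one] at h0
        exact h0
      exact this.symm
    exact ha (S.no_fix hne' h1)
  -- restricted to `B` it is a bijection of `B`
  let φ : B → B := fun y => ⟨(y : P)⁻¹ * ξ^[a] y, B.mul_mem (B.inv_mem y.2) (hB.iter y.2 a)⟩
  have hφinj : Function.Injective φ := by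
    intro u v huv
    apply Subtype.ext
    apply hinj
    exact congrArg Subtype.val huv
  have hφsurj := Finite.injective_iff_surjective.mp hφinj
  obtain ⟨b, hb⟩ := hφsurj ⟨_, hx⟩
  have h1 : (b : P) = x := hinj (congrArg Subtype.val hb)
  rw [← h1]
  exact b.2

/-- The index of a proper invariant subgroup is at least `q`. -/
theorem index_ge {W : Subgroup P} (hW : IsInv ξ W) (hne : W ≠ ⊤) : q ≤ W.index := by
  classical
  haveI := S.fin
  have hwell : ∀ x y : P, (x : P ⧸ W) = (y : P ⧸ W) → ((ξ x : P) : P ⧸ W) = ((ξ y : P) : P ⧸ W) := by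
    intro x y h
    rw [QuotientGroup.eq] at h ⊢
    have := hW _ h
    rwa [map_mul, map_inv] at this
  let T : P ⧸ W → P ⧸ W := fun c => ((ξ (Quotient.out c) : P) : P ⧸ W)
  have hT : ∀ x : P, T (x : P ⧸ W) = ((ξ x : P) : P ⧸ W) := by
    intro x
    apply hwell
    exact Quotient.out_eq _
  have hTiter : ∀ (a : ℕ) (x : P), T^[a] (x : P ⧸ W) = ((ξ^[a] x : P) : P ⧸ W) := by
    intro a x
    induction a with
    | zero => rfl
    | succ a ih =>
      rw [Function.iterate_succ_apply', ih, hT, Function.iterate_succ_apply']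
  have hTinj : Function.Injective T := by
    intro c d h
    obtain ⟨x, rfl⟩ := QuotientGroup.mk_surjective c
    obtain ⟨y, rfl⟩ := QuotientGroup.mk_surjective d
    rw [hT, hT, QuotientGroup.eq, ← map_inv, ← map_mul] at h
    rw [QuotientGroup.eq]
    exact S.inv_of_xi hW h
  let A : Set (P ⧸ W) := {c | c ≠ ((1 : P) : P ⧸ W)}
  have hd : M ∣ Nat.card A := by
    apply free_set_dvd A T
    · intro c hc h
      apply hc
      apply hTinj
      rw [h, hT, map_one]
    · exact hTinj.injOn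
    · intro c hc a ha
      obtain ⟨x, rfl⟩ := QuotientGroup.mk_surjective c
      rw [hTiter, eq_comm, QuotientGroup.eq] at ha
      by_contra hnd
      apply hc
      have := S.free_mod hW hnd ha
      rw [eq_comm, QuotientGroup.eq]
      simpa using this
  have hA : Nat.card A + 1 = W.index := by
    haveI := Fintype.ofFinite (P ⧸ W)
    rw [Subgroup.index, Nat.card_eq_fintype_card, Nat.card_eq_fintype_card]
    have h1 := Fintype.card_subtype_compl (fun x : P ⧸ W => x = ((1 : P) : P ⧸ W))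
    simp only [Fintype.card_unique] at h1
    have h4 : 0 < Fintype.card (P ⧸ W) := Fintype.card_pos
    have h5 : Fintype.card A = Fintype.card {x : P ⧸ W // ¬ x = ((1 : P) : P ⧸ W)} := rfl
    omega
  obtain ⟨e, he⟩ := IsPGroup.iff_card.mp S.pg
  have hidx : W.index ∣ 2 ^ e := by
    rw [← he]
    exact Subgroup.index_dvd_card W
  obtain ⟨c, -, hc⟩ := (Nat.dvd_prime_pow Nat.prime_two).mp hidx
  have hc0 : c ≠ 0 := by
    rintro rfl
    rw [pow_zero, Subgroup.index_eq_one] at hc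
    exact hne hc
  rw [hc]
  apply S.le_of_dvd_sub_one hc0
  rw [← hc, ← hA]
  simpa using hd

end Setup

variable {F : Type*} [Field F] [Fintype F] [CharP F 2]

/-- Field coordinates on the section `A / B`. -/
structure Coord (ξ : P →* P) (A B : Subgroup P) (f : P → F) (μ : F) : Prop where
  add : ∀ x ∈ A, ∀ y ∈ A, f (x * y) = f x + f y
  ker : ∀ x ∈ A, f x = 0 ↔ x ∈ B
  surj : ∀ u, ∃ x ∈ A, f x = u
  mulξ : ∀ x ∈ A, f (ξ x) = μ * f x

namespace Coord

variable {ξ : P →* P} {A B : Subgroup P} {f : P → F} {μ : F} (c : Coord ξ A B f μ)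
include c

theorem map_one : f 1 = 0 := by
  have h := c.add 1 A.one_mem 1 A.one_mem
  rw [mul_one] at h
  have : f 1 + f 1 = f 1 + 0 := by rw [add_zero]; exact h.symm
  exact add_left_cancel this

theorem map_inv {x : P} (hx : x ∈ A) : f x⁻¹ = - f x := by
  have h := c.add x hx x⁻¹ (A.inv_mem hx)
  rw [mul_inv_cancel, c.map_one] at h
  exact (eq_neg_of_add_eq_zero_right h.symm)

theorem eq_of_mul_mem {x z : P} (hx : x ∈ A) (hz : z ∈ B) (hzA : z ∈ A) : f (x * z) = f x := by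
  rw [c.add x hx z hzA, (c.ker z hzA).mpr hz, add_zero]

theorem map_eq_iff {x y : P} (hx : x ∈ A) (hy : y ∈ A) : f x = f y ↔ x⁻¹ * y ∈ B := by
  have hm : x⁻¹ * y ∈ A := A.mul_mem (A.inv_mem hx) hy
  rw [← c.ker _ hm, c.add _ (A.inv_mem hx) _ hy, c.map_inv hx]
  constructor
  · intro h; rw [h]; simp
  · intro h
    have := neg_add_eq_zero.mp h
    exact this

end Coord

namespace Setup

variable {ξ : P →* P} {q M n : ℕ} (S : Setup ξ q M n)
include S

/-- Field coordinates on an irreducible section. -/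
theorem exists_coord (hq : Fintype.card F = q) {A B : Subgroup P} (hBA : B ≤ A) (hne : B ≠ A)
    (hA : IsInv ξ A) (hB : IsInv ξ B) (hnorm : (B.subgroupOf A).Normal)
    (hmin : ∀ C : Subgroup P, IsInv ξ C → B ≤ C → C ≤ A → C = B ∨ C = A) :
    (∀ x ∈ A, ∀ y ∈ A, x * y * x⁻¹ * y⁻¹ ∈ B) ∧ (∀ x ∈ A, x * x ∈ B) ∧
      ∃ (μ : F) (f : P → F), orderOf μ = M ∧ Coord ξ A B f μ := by
  classical
  haveI := S.fin
  have h3 := S.three
  -- the restriction of `ξ` to `A`
  let ξA : A →* A := (ξ.comp A.subtype).codRestrict A (fun x => hA x x.2)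
  have hξA : ∀ x : A, ((ξA x : A) : P) = ξ x := fun _ => rfl
  have hiterA : ∀ (n : ℕ) (x : A), ((ξA^[n] x : A) : P) = ξ^[n] (x : P) := by
    intro n x
    induction n with
    | zero => rfl
    | succ n ih =>
      rw [Function.iterate_succ_apply', Function.iterate_succ_apply', hξA, ih]
  let N : Subgroup A := B.subgroupOf A
  have hmemN : ∀ x : A, x ∈ N ↔ (x : P) ∈ B := fun x => Subgroup.mem_subgroupOf
  have hξN : N ≤ N.comap ξA := by
    intro x hx
    rw [Subgroup.mem_comap, hmemN, hξA]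
    exact hB _ ((hmemN x).mp hx)
  let T : (A ⧸ N) →* (A ⧸ N) := QuotientGroup.map N N ξA hξN
  have hT : ∀ x : A, T (x : A ⧸ N) = ((ξA x : A) : A ⧸ N) := fun x => rfl
  have hiter : ∀ (n : ℕ) (x : A), T^[n] (x : A ⧸ N) = ((ξA^[n] x : A) : A ⧸ N) := by
    intro n x
    induction n with
    | zero => rfl
    | succ n ih =>
      rw [Function.iterate_succ_apply', Function.iterate_succ_apply', ih, hT]
  have hmk : ∀ x : A, ((x : A ⧸ N) = 1) ↔ (x : P) ∈ B := by
    intro x
    rw [QuotientGroup.eq_one_iff, hmemN]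
  have hpg : IsPGroup 2 (A ⧸ N) := (S.pg.to_subgroup A).to_quotient N
  have hnt : Nontrivial (A ⧸ N) := by
    obtain ⟨a, haA, haB⟩ : ∃ a ∈ A, a ∉ B := by
      by_contra h
      push Not at h
      exact hne (le_antisymm hBA h)
    refine ⟨⟨((⟨a, haA⟩ : A) : A ⧸ N), 1, ?_⟩⟩
    intro h
    exact haB ((hmk _).mp h)
  have hcoord := coordG (F := F) hpg T hq S.qpow h3 (by have := S.M2; omega) S.Mdvd S.hord
    (by
      intro g
      obtain ⟨x, rfl⟩ := QuotientGroup.mk_surjective g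
      rw [hiter]
      congr 1
      apply Subtype.ext
      rw [hiterA]
      exact S.per _)
    (by
      intro a g hg h
      obtain ⟨x, rfl⟩ := QuotientGroup.mk_surjective g
      by_contra hdvd
      apply hg
      rw [hmk]
      apply S.free_mod hB hdvd
      rw [hiter] at h
      have h2 := QuotientGroup.eq.mp h.symm
      rw [hmemN] at h2
      simpa [hiterA] using h2)
    (by
      intro C hC
      -- pull back to `P`
      let C' : Subgroup P := (C.comap (QuotientGroup.mk' N)).map A.subtype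
      have hmemC' : ∀ x : A, (x : P) ∈ C' ↔ (x : A ⧸ N) ∈ C := by
        intro x
        constructor
        · rintro ⟨y, hy, hyx⟩
          have : y = x := Subtype.ext hyx
          rw [← this]
          exact hy
        · intro hx
          exact ⟨x, hx, rfl⟩
      have hC'A : C' ≤ A := by
        rintro _ ⟨y, -, rfl⟩
        exact y.2
      have hBC' : B ≤ C' := by
        intro x hx
        have hxA := hBA hx
        have := (hmemC' ⟨x, hxA⟩).mpr (by
          have h0 : ((⟨x, hxA⟩ : A) : A ⧸ N) = 1 := (hmk _).mpr hx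
          rw [h0]
          exact C.one_mem)
        exact this
      have hC'inv : IsInv ξ C' := by
        intro x hx
        have hxA := hC'A hx
        have h1 : ((⟨x, hxA⟩ : A) : A ⧸ N) ∈ C := (hmemC' ⟨x, hxA⟩).mp hx
        have h2 := hC _ h1
        rw [hT] at h2
        exact (hmemC' _).mpr h2
      rcases hmin C' hC'inv hBC' hC'A with h | h
      · left
        rw [eq_bot_iff]
        intro g hg
        obtain ⟨x, rfl⟩ := QuotientGroup.mk_surjective g
        have : (x : P) ∈ C' := (hmemC' x).mpr hg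
        rw [h] at this
        rw [Subgroup.mem_bot]
        exact (hmk x).mpr this
      · right
        rw [eq_top_iff]
        intro g _
        obtain ⟨x, rfl⟩ := QuotientGroup.mk_surjective g
        apply (hmemC' x).mp
        rw [h]
        exact x.2)
  obtain ⟨hc, he, μ, f, hμ, hbij, hadd, hmul⟩ := hcoord
  refine ⟨?_, ?_, μ, fun x => if h : x ∈ A then f ((⟨x, h⟩ : A) : A ⧸ N) else 0, hμ, ?_⟩
  · intro x hx y hy
    have h1 := hc ((⟨x, hx⟩ : A) : A ⧸ N) ((⟨y, hy⟩ : A) : A ⧸ N)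
    have h2 : ((⟨x, hx⟩ * ⟨y, hy⟩ * (⟨x, hx⟩ : A)⁻¹ * (⟨y, hy⟩ : A)⁻¹ : A) : A ⧸ N) = 1 := by
      rw [QuotientGroup.mk_mul, QuotientGroup.mk_mul, QuotientGroup.mk_mul, QuotientGroup.mk_inv,
        QuotientGroup.mk_inv, h1]
      group
    exact (hmk _).mp h2
  · intro x hx
    have h1 := he ((⟨x, hx⟩ : A) : A ⧸ N)
    have h2 : ((⟨x, hx⟩ * ⟨x, hx⟩ : A) : A ⧸ N) = 1 := by
      rw [QuotientGroup.mk_mul, h1]
    exact (hmk _).mp h2
  · refine ⟨?_, ?_, ?_, ?_⟩
    · intro x hx y hy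
      simp only [hx, hy, A.mul_mem hx hy, dif_pos]
      rw [← hadd]
      rfl
    · intro x hx
      simp only [hx, dif_pos]
      have hf1 : f 1 = 0 := by
        have := hadd 1 1
        rw [mul_one] at this
        have h0 : f 1 + f 1 = f 1 + 0 := by rw [add_zero]; exact this.symm
        exact add_left_cancel h0
      constructor
      · intro h
        have h1 : ((⟨x, hx⟩ : A) : A ⧸ N) = 1 := hbij.1 (by rw [h, hf1])
        exact (hmk _).mp h1
      · intro h
        rw [(hmk ⟨x, hx⟩).mpr h, hf1]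
    · intro u
      obtain ⟨g, hg⟩ := hbij.2 u
      obtain ⟨x, rfl⟩ := QuotientGroup.mk_surjective g
      refine ⟨x, x.2, ?_⟩
      simp only [x.2, dif_pos]
      exact hg
    · intro x hx
      simp only [hx, hA x hx, dif_pos]
      have := hmul ((⟨x, hx⟩ : A) : A ⧸ N)
      rw [hT] at this
      exact this

/-- Coordinates on `Om`. -/
theorem exists_Om_coord (hq : Fintype.card F = q) :
    ∃ (l : F) (θ : P → F), orderOf l = M ∧ Coord ξ S.Om ⊥ θ l := by
  obtain ⟨-, -, l, θ, hl, hθ⟩ := S.exists_coord (F := F) hq (A := S.Om) (B := ⊥) bot_le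
    (by
      obtain ⟨z, hz1, hz2⟩ := S.exists_invol
      intro h
      have : z ∈ (⊥ : Subgroup P) := by rw [h]; exact hz2
      exact hz1 (by simpa using this))
    S.Om_inv
    (by
      intro x hx
      have hx' : x = 1 := by simpa using hx
      rw [hx', map_one]
      exact Subgroup.one_mem _)
    (by
      rw [Subgroup.bot_subgroupOf]
      exact Subgroup.normal_bot)
    (by
      intro C hC _ hCO
      by_cases h : C = ⊥
      · exact Or.inl h
      · right
        exact le_antisymm hCO (S.Om_le hC h))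
  exact ⟨l, θ, hl, hθ⟩

theorem comm_mul_left {a b c : P} (h : ⁅b, c⁆ ∈ S.Om) : ⁅a * b, c⁆ = ⁅a, c⁆ * ⁅b, c⁆ := by
  have h1 : a * ⁅b, c⁆ = ⁅b, c⁆ * a := S.Om_central h a
  have h2 : ⁅a * b, c⁆ = a * ⁅b, c⁆ * a⁻¹ * ⁅a, c⁆ := by
    simp only [commutatorElement_def]; group
  rw [h2, h1, mul_inv_cancel_right]
  exact (S.Om_central h _).symm

theorem comm_mul_right {a b c : P} (h : ⁅a, c⁆ ∈ S.Om) : ⁅a, b * c⁆ = ⁅a, b⁆ * ⁅a, c⁆ := by
  have h2 : ⁅a, b * c⁆ = ⁅a, b⁆ * (b * ⁅a, c⁆ * b⁻¹) := by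
    simp only [commutatorElement_def]; group
  rw [h2, S.Om_central h b, mul_inv_cancel_right]

/-- Commutators of elements whose squares (and the square of the product) lie in `Om`. -/
theorem comm_mem_of_sq {u v : P} (hu : u * u ∈ S.Om) (hv : v * v ∈ S.Om)
    (huv : u * v * (u * v) ∈ S.Om) : ⁅u, v⁆ ∈ S.Om := by
  have h1 : ⁅u, v⁆ = (u * v * (u * v)) * (u * u)⁻¹ * (v * v)⁻¹ := by
    have hb : ∀ g : P, g * (v * v)⁻¹ = (v * v)⁻¹ * g := fun g => S.Om_central (S.Om.inv_mem hv) g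
    have ha : ∀ g : P, g * (u * u)⁻¹ = (u * u)⁻¹ * g := fun g => S.Om_central (S.Om.inv_mem hu) g
    have e1 : ⁅u, v⁆ = u * v * ((u * u)⁻¹ * u) * ((v * v)⁻¹ * v) := by
      simp only [commutatorElement_def]; group
    generalize (u * u)⁻¹ = a at ha e1 ⊢
    generalize (v * v)⁻¹ = b at hb e1 ⊢
    calc ⁅u, v⁆ = u * v * (a * u) * (b * v) := e1
      _ = (u * v * a) * u * (b * v) := by group
      _ = a * (u * v) * u * (b * v) := by rw [ha (u * v)]
      _ = a * ((u * v * u) * b) * v := by group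
      _ = a * (b * (u * v * u)) * v := by rw [hb (u * v * u)]
      _ = a * (b * (u * v * (u * v))) := by group
      _ = a * ((u * v * (u * v)) * b) := by rw [hb]
      _ = (a * (u * v * (u * v))) * b := by group
      _ = ((u * v * (u * v)) * a) * b := by rw [ha]
  rw [h1]
  exact S.Om.mul_mem (S.Om.mul_mem huv (S.Om.inv_mem hu)) (S.Om.inv_mem hv)

end Setup

section Mono

variable {n M : ℕ} {ξ : P →* P} {A₁ B₁ A₂ B₂ : Subgroup P} {f₁ f₂ : P → F} {μ l : F}

/-- The monomial lemma for group sections. -/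
theorem mono_of_coord (hm : Fintype.card F = 2 ^ n) (hm0 : n ≠ 0) (hM : 2 ≤ M) (hw : HW M n)
    (c1 : Coord ξ A₁ B₁ f₁ μ) (c2 : Coord ξ A₂ B₂ f₂ l) (hμ : orderOf μ = M) (hl : orderOf l = M)
    (hA₁ : IsInv ξ A₁) (hA₂ : IsInv ξ A₂)
    (g : P → P → F)
    (hadd1 : ∀ x ∈ A₁, ∀ x' ∈ A₁, ∀ y ∈ A₂, g (x * x') y = g x y + g x' y)
    (hadd2 : ∀ x ∈ A₁, ∀ y ∈ A₂, ∀ y' ∈ A₂, g x (y * y') = g x y + g x y')
    (hker1 : ∀ x ∈ B₁, x ∈ A₁ → ∀ y ∈ A₂, g x y = 0)
    (hker2 : ∀ x ∈ A₁, ∀ y ∈ B₂, y ∈ A₂ → g x y = 0)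
    (hequiv : ∀ x ∈ A₁, ∀ y ∈ A₂, g (ξ x) (ξ y) = l * g x y) :
    ∃ (C : F) (σ τ : F ≃+* F), (∀ x ∈ A₁, ∀ y ∈ A₂, g x y = C * (σ (f₁ x) * τ (f₂ y))) ∧
      (C ≠ 0 → σ μ * τ l = l ∧ τ ≠ RingEquiv.refl F) := by
  classical
  choose s₁ hs₁A hs₁ using c1.surj
  choose s₂ hs₂A hs₂ using c2.surj
  have key1 : ∀ x ∈ A₁, ∀ x' ∈ A₁, f₁ x = f₁ x' → ∀ y ∈ A₂, g x y = g x' y := by
    intro x hx x' hx' h y hy
    have hz : x⁻¹ * x' ∈ B₁ := (c1.map_eq_iff hx hx').mp h
    have hzA : x⁻¹ * x' ∈ A₁ := A₁.mul_mem (A₁.inv_mem hx) hx'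
    have : x' = x * (x⁻¹ * x') := by group
    rw [this, hadd1 x hx _ hzA y hy, hker1 _ hz hzA y hy, add_zero]
  have key2 : ∀ x ∈ A₁, ∀ y ∈ A₂, ∀ y' ∈ A₂, f₂ y = f₂ y' → g x y = g x y' := by
    intro x hx y hy y' hy' h
    have hz : y⁻¹ * y' ∈ B₂ := (c2.map_eq_iff hy hy').mp h
    have hzA : y⁻¹ * y' ∈ A₂ := A₂.mul_mem (A₂.inv_mem hy) hy'
    have : y' = y * (y⁻¹ * y') := by group
    rw [this, hadd2 x hx y hy _ hzA, hker2 x hx _ hz hzA, add_zero]
  let b : F →+ F →+ F := AddMonoidHom.mk'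
    (fun u => AddMonoidHom.mk' (fun w => g (s₁ u) (s₂ w)) (by
      intro w w'
      have e1 : f₂ (s₂ (w + w')) = f₂ (s₂ w * s₂ w') := by
        rw [hs₂, c2.add _ (hs₂A _) _ (hs₂A _), hs₂, hs₂]
      rw [key2 _ (hs₁A _) _ (hs₂A _) _ (A₂.mul_mem (hs₂A _) (hs₂A _)) e1,
        hadd2 _ (hs₁A _) _ (hs₂A _) _ (hs₂A _)]))
    (by
      intro u u'
      ext w
      have e1 : f₁ (s₁ (u + u')) = f₁ (s₁ u * s₁ u') := by
        rw [hs₁, c1.add _ (hs₁A _) _ (hs₁A _), hs₁, hs₁]
      show g (s₁ (u + u')) (s₂ w) = g (s₁ u) (s₂ w) + g (s₁ u') (s₂ w)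
      rw [key1 _ (hs₁A _) _ (A₁.mul_mem (hs₁A _) (hs₁A _)) e1 _ (hs₂A _),
        hadd1 _ (hs₁A _) _ (hs₁A _) _ (hs₂A _)])
  have hb : ∀ u w, b u w = g (s₁ u) (s₂ w) := fun _ _ => rfl
  have hbg : ∀ x ∈ A₁, ∀ y ∈ A₂, b (f₁ x) (f₂ y) = g x y := by
    intro x hx y hy
    rw [hb, key1 _ (hs₁A _) _ hx (hs₁ _) _ (hs₂A _), key2 _ hx _ (hs₂A _) _ hy (hs₂ _)]
  have hequiv' : ∀ u w, b (μ * u) (l * w) = l * b u w := by
    intro u w
    have e1 := c1.mulξ _ (hs₁A u)
    have e2 := c2.mulξ _ (hs₂A w)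
    rw [hs₁] at e1
    rw [hs₂] at e2
    rw [← e1, ← e2, hbg _ (hA₁ _ (hs₁A _)) _ (hA₂ _ (hs₂A _)), hequiv _ (hs₁A _) _ (hs₂A _), hb]
  obtain ⟨C, σ, τ, h1, h2⟩ := mono hm hm0 hM hw hμ hl b hequiv'
  refine ⟨C, σ, τ, ?_, h2⟩
  intro x hx y hy
  rw [← hbg x hx y hy, h1]

end Mono

end Cfsg.Agent.Lib.PGroup.SuzukiGen
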